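import Mathlib
import Cfsg.Prelude.Def_GeometricClasses
import Cfsg.Agent.H99.SympCard
import Cfsg.Agent.H99.SLOrder
import Cfsg.Agent.H99.SLConj
import Cfsg.Agent.H99.OrderEq
import Cfsg.Agent.H99.CharTwoSp
import Cfsg.Agent.H39.OE4

/-!
Quadratic similarities and diagonal matrices (helper13).
-/

set_option autoImplicit false
open scoped MatrixGroups
open Cfsg

namespace Cfsg.Agent.QEl

open Module Matrix QuadraticMap Cfsg.Agent.Orth

section
variable {F : Type*} [Field F] {n : ℕ}

/-- the form transported by the conjugating matrix -/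
lemma extract [Fintype F] {Q : (Fin n → F) → F} (hQ : Cfsg.Geo.IsNondegenerateQuadraticForm Q) (x g : GL (Fin n) F)
    (h : g⁻¹ * x * g ∈ Cfsg.Geo.quadSimilarityGroup Q) :
    ∃ Q' : QuadraticForm F (Fin n → F), (polarBilin Q').Nondegenerate ∧
      (∃ e : (Fin n → F) ≃ₗ[F] (Fin n → F), ∀ v, H99.qOfFun hQ (e v) = Q' v) ∧
      ∃ μ : F, μ ≠ 0 ∧ ∀ v, Q' ((x : Matrix (Fin n) (Fin n) F) *ᵥ v) = μ * Q' v := by
  have h1 : ((g⁻¹ : GL (Fin n) F) : Matrix (Fin n) (Fin n) F) * (g : Matrix (Fin n) (Fin n) F) = 1 := by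
    rw [← Units.val_mul, inv_mul_cancel, Units.val_one]
  have h2 : (g : Matrix (Fin n) (Fin n) F) * ((g⁻¹ : GL (Fin n) F) : Matrix (Fin n) (Fin n) F) = 1 := by
    rw [← Units.val_mul, mul_inv_cancel, Units.val_one]
  let e : (Fin n → F) ≃ₗ[F] (Fin n → F) := LinearEquiv.ofLinear
    (Matrix.toLin' ((g⁻¹ : GL (Fin n) F) : Matrix (Fin n) (Fin n) F)) (Matrix.toLin' (g : Matrix (Fin n) (Fin n) F))
    (by rw [← Matrix.toLin'_mul, h1, Matrix.toLin'_one]) (by rw [← Matrix.toLin'_mul, h2, Matrix.toLin'_one])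
  have he : ∀ v, e v = ((g⁻¹ : GL (Fin n) F) : Matrix (Fin n) (Fin n) F) *ᵥ v := fun v => rfl
  let Q' : QuadraticForm F (Fin n → F) := (H99.qOfFun hQ).comp e.toLinearMap
  have hQ' : ∀ v, Q' v = H99.qOfFun hQ (e v) := fun v => rfl
  refine ⟨Q', ?_, ⟨e, fun v => rfl⟩, ?_⟩
  · have hN := H99.qOfFun_nondegenerate hQ
    apply H99.nondegenerate_of_ND
    intro u _ hu
    have h3 : e u = 0 := hN.1 (e u) fun v => by
      have h4 := hu (e.symm v) Submodule.mem_top
      have h5 : polar Q' u (e.symm v) = polar (H99.qOfFun hQ) (e u) v := by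
        simp only [QuadraticMap.polar, hQ', map_add, LinearEquiv.apply_symm_apply]
      beta_reduce at h4
      rw [h5] at h4
      exact h4
    exact (LinearEquiv.map_eq_zero_iff e).mp h3
  · obtain ⟨c, hc⟩ := h
    refine ⟨c, c.ne_zero, fun v => ?_⟩
    have h3 := hc (((g⁻¹ : GL (Fin n) F) : Matrix (Fin n) (Fin n) F) *ᵥ v)
    have h4 : ((g⁻¹ * x * g : GL (Fin n) F) : Matrix (Fin n) (Fin n) F) *ᵥ
        (((g⁻¹ : GL (Fin n) F) : Matrix (Fin n) (Fin n) F) *ᵥ v) =
        ((g⁻¹ : GL (Fin n) F) : Matrix (Fin n) (Fin n) F) *ᵥ ((x : Matrix (Fin n) (Fin n) F) *ᵥ v) := by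
      rw [Units.val_mul, Units.val_mul, Matrix.mulVec_mulVec, Matrix.mulVec_mulVec, Matrix.mul_assoc, h2, Matrix.mul_one]
    rw [h4] at h3
    exact h3

lemma mu_pow {Q' : QuadraticForm F (Fin n → F)} {μ : F} (hn0 : 0 < n) (hND : (polarBilin Q').Nondegenerate) (M : Matrix (Fin n) (Fin n) F)
    (h : ∀ v, Q' (M *ᵥ v) = μ * Q' v) (m : ℕ) (hM : M ^ m = 1) : μ ^ m = 1 := by
  have h1 : ∀ k : ℕ, ∀ v, Q' ((M ^ k) *ᵥ v) = μ ^ k * Q' v := by
    intro k
    induction k with
    | zero => intro v; simp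
    | succ k ih =>
      intro v
      rw [pow_succ', ← Matrix.mulVec_mulVec, h, ih, pow_succ]
      ring
  have : Nonempty (Fin n) := ⟨⟨0, hn0⟩⟩
  obtain ⟨u, hu⟩ := exists_ne (0 : Fin n → F)
  have h2 : ∃ v, Q' v ≠ 0 := by
    by_contra hcon
    push Not at hcon
    apply hu
    apply hND.1 u
    intro v
    change polar Q' u v = 0
    simp only [QuadraticMap.polar, hcon, sub_zero]
  obtain ⟨v, hv⟩ := h2
  have h3 := h1 m v
  rw [hM, Matrix.one_mulVec] at h3
  have h4 : (μ ^ m - 1) * Q' v = 0 := by linear_combination -h3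
  exact sub_eq_zero.mp ((mul_eq_zero.mp h4).resolve_right hv)

lemma polar_sim {V : Type*} [AddCommGroup V] [Module F V] {Q' : QuadraticForm F V} {μ : F} {f : V →ₗ[F] V}
    (h : ∀ v, Q' (f v) = μ * Q' v) (u v : V) : polar Q' (f u) (f v) = μ * polar Q' u v := by
  simp only [QuadraticMap.polar, ← map_add, h]
  ring

/-- coordinate subspaces with partners in a smaller coordinate subspace -/
lemma card_le_of_pairing {ι V : Type*} [Fintype ι] [DecidableEq ι] [AddCommGroup V] [Module F V] (b : Basis ι F V)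
    {Q' : QuadraticForm F V} (hND : (polarBilin Q').Nondegenerate) (S T : Finset ι)
    (h : ∀ j ∈ S, ∀ k, k ∉ T → polar Q' (b j) (b k) = 0) : S.card ≤ T.card := by
  classical
  let φ : (S → F) →ₗ[F] (T → F) :=
    { toFun := fun a k => ∑ j : S, a j * polar Q' (b (j : ι)) (b (k : ι))
      map_add' := fun a b => by
        funext k
        simp only [Pi.add_apply, add_mul, Finset.sum_add_distrib]
      map_smul' := fun c a => by
        funext k
        simp only [Pi.smul_apply, smul_eq_mul, mul_assoc, Finset.mul_sum, RingHom.id_apply] }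
  have hφ : Function.Injective φ := by
    rw [injective_iff_map_eq_zero]
    intro a ha
    let u : V := ∑ j : S, a j • b (j : ι)
    have hu : ∀ w, polarBilin Q' u w = ∑ j : S, a j * polar Q' (b (j : ι)) w := by
      intro w
      simp only [u, map_sum, map_smul, LinearMap.sum_apply, LinearMap.smul_apply, smul_eq_mul]
      rfl
    have h0 : u = 0 := by
      apply hND.1
      intro v
      have h1 : polarBilin Q' u = 0 := by
        apply b.ext
        intro k
        rw [hu, LinearMap.zero_apply]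
        by_cases hk : k ∈ T
        · exact congrFun ha ⟨k, hk⟩
        · apply Finset.sum_eq_zero
          intro j _
          rw [h j j.2 k hk, mul_zero]
      rw [h1, LinearMap.zero_apply]
    have hli := (b.linearIndependent.comp (fun j : S => (j : ι)) Subtype.val_injective)
    rw [Fintype.linearIndependent_iff] at hli
    funext j
    exact hli a h0 j
  have h1 := LinearMap.finrank_le_finrank_of_injective hφ
  simpa using h1

/-- multiplicities of paired eigenvalues -/
lemma card_le_card {ι V : Type*} [Fintype ι] [DecidableEq ι] [DecidableEq F] [AddCommGroup V] [Module F V] (b : Basis ι F V)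
    {Q' : QuadraticForm F V} (hND : (polarBilin Q').Nondegenerate) {f : V →ₗ[F] V} {c : ι → F} (hf : ∀ j, f (b j) = c j • b j)
    {μ : F} (h : ∀ v, Q' (f v) = μ * Q' v) {a a' : F} (ha : a ≠ 0) (haa : a * a' = μ) :
    (Finset.univ.filter (fun j => c j = a)).card ≤ (Finset.univ.filter (fun j => c j = a')).card := by
  apply card_le_of_pairing b hND
  intro j hj k hk
  rw [Finset.mem_filter] at hj hk
  have hj2 := hj.2
  have hk2 : c k ≠ a' := fun h => hk ⟨Finset.mem_univ _, h⟩
  have h1 := polar_sim h (b j) (b k)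
  rw [hf, hf, psl, psr, hj2, ← haa] at h1
  have h3 : (a * (c k - a')) * polar Q' (b j) (b k) = 0 := by linear_combination h1
  rcases mul_eq_zero.mp h3 with h4 | h4
  · rcases mul_eq_zero.mp h4 with h5 | h5
    · exact absurd h5 ha
    · exact absurd (sub_eq_zero.mp h5) hk2
  · exact h4

lemma diag_apply (c : Fin n → F) (j : Fin n) :
    Matrix.toLin' (Matrix.diagonal c) (Pi.basisFun F (Fin n) j) = c j • (Pi.basisFun F (Fin n) j) := by
  rw [Matrix.toLin'_apply]
  ext i
  rw [Matrix.mulVec_diagonal]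
  by_cases hij : i = j
  · subst hij; simp
  · simp [hij]

/-- multiplicities are symmetric -/
lemma card_symm [DecidableEq F] {Q' : QuadraticForm F (Fin n → F)} (hND : (polarBilin Q').Nondegenerate) {c : Fin n → F} {μ : F}
    (hμ : μ ≠ 0) (h : ∀ v, Q' (Matrix.diagonal c *ᵥ v) = μ * Q' v) {a a' : F} (haa : a * a' = μ) :
    (Finset.univ.filter (fun j => c j = a)).card = (Finset.univ.filter (fun j => c j = a')).card := by
  have ha : a ≠ 0 := by rintro rfl; exact hμ (by rw [← haa, zero_mul])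
  have ha' : a' ≠ 0 := by rintro rfl; exact hμ (by rw [← haa, mul_zero])
  exact le_antisymm (card_le_card (Pi.basisFun F (Fin n)) hND (f := Matrix.toLin' (Matrix.diagonal c)) (diag_apply c) h ha haa)
    (card_le_card (Pi.basisFun F (Fin n)) hND (f := Matrix.toLin' (Matrix.diagonal c)) (diag_apply c) h ha' (by rw [mul_comm]; exact haa))

end

end Cfsg.Agent.QEl
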